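import Cfsg.Agent.Nodes.Unique
import Cfsg.Agent.H224.SNX.Tee2

/-!
# Root group data with additive commutator relations (helper255, for S3831, task T4c)

* `CM` : `[X x, X y]` lies in the group generated by `X z`, `z = x + y, 2 x + y, x + 2 y`;
* `AC` : additively closed sets of roots;
* `inf_ac`, `ac_peel` : unique factorisation;
* `Sa` : the additively closed support; `sa_conj`.
-/

set_option autoImplicit false
set_option linter.unusedSectionVars false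

namespace Cfsg.Agent.H255.SN6

open CoxeterSystem Cfsg.Agent.ChevalleyStructure.CoxeterGeom Cfsg.Agent.Tits.Roots Cfsg.Agent.Tits.Core
  Cfsg.Agent.Tits.RootComb Cfsg.Agent.Tits.Exchange Cfsg.Agent.Nodes.Reps Cfsg.Agent.Nodes.BNOf
  Cfsg.Agent.Nodes.StabComb Cfsg.Agent.Nodes.Bruhat Cfsg.Agent.Nodes.OppDec Cfsg.Agent.Nodes.LeviDec
  Cfsg.Agent.Nodes.Unique Cfsg.Agent.Nodes.NormalForm Cfsg.Agent.KFacts.RgdOpp
open scoped commutatorElement

variable {I W Y : Type*} [Fintype I] [DecidableEq I] [Group W] [Group Y] {M : CoxeterMatrix I}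
  {cs : CoxeterSystem M W} {A : I → I → ℤ} {h : IsCartan M A} {p : ℕ} {T : Subgroup Y} {n : I → Y}
  {X : (I → ℤ) → Subgroup Y}

/-- the roots `x + y`, `2 x + y`, `x + 2 y` -/
def bw (cs : CoxeterSystem M W) (h : IsCartan M A) (x y : I → ℤ) : Set (I → ℤ) :=
  {z | IsRoot cs h z ∧ (z = x + y ∨ z = x + x + y ∨ z = x + y + y)}

theorem bw_btwn {x y z : I → ℤ} (hz : z ∈ bw cs h x y) : Btwn cs h x y z := by
  obtain ⟨h1, rfl | rfl | rfl⟩ := hz
  · exact ⟨h1, 1, 1, 1, one_pos, one_pos, one_pos, by simp⟩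
  · exact ⟨h1, 1, 2, 1, one_pos, two_pos, one_pos, by rw [one_smul, one_smul, two_smul]⟩
  · exact ⟨h1, 1, 1, 2, one_pos, one_pos, two_pos, by rw [one_smul, one_smul, two_smul, add_assoc]⟩

theorem bw_act {x y z : I → ℤ} (hz : z ∈ bw cs h x y) (w : W) :
    rep cs h w z ∈ bw cs h (rep cs h w x) (rep cs h w y) := by
  obtain ⟨h1, rfl | rfl | rfl⟩ := hz
  · exact ⟨h1.act w, Or.inl (map_add _ _ _)⟩
  · exact ⟨h1.act w, Or.inr (Or.inl (by rw [map_add, map_add]))⟩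
  · exact ⟨h1.act w, Or.inr (Or.inr (by rw [map_add, map_add]))⟩

/-- the commutator relations -/
def CM (cs : CoxeterSystem M W) (h : IsCartan M A) (X : (I → ℤ) → Subgroup Y) : Prop :=
  ∀ x y, IsRoot cs h x → IsRoot cs h y → x ≠ y → x ≠ -y → ∀ a ∈ X x, ∀ b ∈ X y, ⁅a, b⁆ ∈ RGD.Sup X (bw cs h x y)

/-- additively closed sets -/
def AC (cs : CoxeterSystem M W) (h : IsCartan M A) (S : Set (I → ℤ)) : Prop :=
  ∀ x ∈ S, ∀ y ∈ S, x ≠ y → ∀ z ∈ bw cs h x y, z ∈ S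

theorem AC.inter {S S' : Set (I → ℤ)} (hS : AC cs h S) (hS' : AC cs h S') : AC cs h (S ∩ S') :=
  fun x hx y hy hne z hz => ⟨hS x hx.1 y hy.1 hne z hz, hS' x hx.2 y hy.2 hne z hz⟩

theorem ac_of_closed {S : Set (I → ℤ)} (hS : Closed cs h S) : AC cs h S :=
  fun x hx y hy _ z hz => hS x hx y hy z (bw_btwn hz)

theorem ac_pos : AC cs h (RGD.Pos cs h) := ac_of_closed closed_pos

theorem ac_image {S : Set (I → ℤ)} (hS : AC cs h S) (w : W) : AC cs h (rep cs h w '' S) := by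
  rintro _ ⟨x, hx, rfl⟩ _ ⟨y, hy, rfl⟩ hne z hz
  have h1 := bw_act hz w⁻¹
  rw [rep_inv_apply, rep_inv_apply] at h1
  exact ⟨_, hS x hx y hy (fun e => hne (by rw [e])) _ h1, rep_apply_inv cs h w z⟩

theorem ac_pre {S : Set (I → ℤ)} (hS : AC cs h S) (w : W) :
    AC cs h {x | x ∈ RGD.Pos cs h ∧ rep cs h w x ∈ S} := fun _ hx _ hy hne _ hz =>
  ⟨ac_pos _ hx.1 _ hy.1 hne _ hz, hS _ hx.2 _ hy.2 (fun e => hne (by
    have := congrArg (rep cs h w⁻¹) e
    rwa [rep_inv_apply, rep_inv_apply] at this)) _ (bw_act hz w)⟩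

theorem pos_ne_neg {x y : I → ℤ} (hx : x ∈ RGD.Pos cs h) (hy : y ∈ RGD.Pos cs h) : x ≠ -y := by
  intro he
  have h0 := hx.2
  rw [he] at h0
  exact hy.1.neg.not_pos_neg h0 (neg_nonpos.2 hy.2)

section

variable (R : RGD cs h p T n X) (cm : CM cs h X)

include R cm

/-- normalising the join of root groups -/
theorem le_nrm {x : I → ℤ} {S : Set (I → ℤ)} (hx : IsRoot cs h x)
    (hS : ∀ y ∈ S, IsRoot cs h y ∧ (x = y ∨ (x ≠ -y ∧ ∀ z ∈ bw cs h x y, z ∈ S))) :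
    X x ≤ Subgroup.normalizer (RGD.Sup X S : Set Y) := by
  have key : ∀ a ∈ X x, cj a (RGD.Sup X S) ≤ RGD.Sup X S := by
    intro a ha
    rw [RGD.cj_Sup]
    refine iSup_le ?_
    rintro ⟨y, hy⟩
    obtain ⟨hyr, hxy | ⟨hxy', hz⟩⟩ := hS y hy
    · subst hxy
      rw [cj_eq_of_mem ha]
      exact RGD.le_Sup hy
    · by_cases hxy : x = y
      · subst hxy
        rw [cj_eq_of_mem ha]
        exact RGD.le_Sup hy
      intro b hb
      rw [mem_cj] at hb
      have h1 := cm x y hx hyr hxy hxy' a ha _ hb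
      have h2 : b = ⁅a, a⁻¹ * b * a⁆ * (a⁻¹ * b * a) := by
        rw [commutatorElement_def]; group
      rw [h2]
      exact mul_mem (RGD.Sup_mono hz h1) (RGD.le_Sup hy hb)
  intro a ha
  rw [mem_normalizer_iff_cj]
  apply le_antisymm (key a ha)
  have h1 := key a⁻¹ (inv_mem ha)
  have h2 := cj_mono a h1
  rwa [cj_cj_inv] at h2

/-- normalising, positive roots -/
theorem nrm_pos {x : I → ℤ} (hx : x ∈ RGD.Pos cs h) {S : Set (I → ℤ)} (hS : S ⊆ RGD.Pos cs h)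
    (hc : ∀ y ∈ S, x ≠ y → ∀ z ∈ bw cs h x y, z ∈ S) :
    X x ≤ Subgroup.normalizer (RGD.Sup X S : Set Y) := by
  refine le_nrm R cm hx.1 fun y hy => ⟨(hS hy).1, ?_⟩
  by_cases hxy : x = y
  · exact Or.inl hxy
  · exact Or.inr ⟨pos_ne_neg hx (hS hy), hc y hy hxy⟩

/-- commuting root groups -/
theorem comm_of {x y : I → ℤ} (hx : IsRoot cs h x) (hy : IsRoot cs h y) (hxy : x ≠ y) (hxy' : x ≠ -y)
    (hS : ∀ z, z ∉ bw cs h x y) {a b : Y} (ha : a ∈ X x) (hb : b ∈ X y) : a * b = b * a := by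
  have h1 := cm x y hx hy hxy hxy' a ha b hb
  have h2 : RGD.Sup X (bw cs h x y) ≤ ⊥ := RGD.Sup_le fun z hz => absurd hz (hS z)
  exact commutatorElement_eq_one_iff_mul_comm.1 (Subgroup.mem_bot.1 (h2 h1))

theorem comm_in {x y : I → ℤ} (hx : IsRoot cs h x) (hy : IsRoot cs h y) (hxy : x ≠ y) (hxy' : x ≠ -y)
    {S : Set (I → ℤ)} (hS : ∀ z ∈ bw cs h x y, z ∈ S) {a b : Y} (ha : a ∈ X x) (hb : b ∈ X y) :
    ⁅a, b⁆ ∈ RGD.Sup X S := RGD.Sup_mono hS (cm x y hx hy hxy hxy' a ha b hb)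

/-- Peeling off one root. -/
theorem ac_normalizer {S : Set (I → ℤ)} (hS : S ⊆ RGD.Pos cs h) (hc : AC cs h S) {x : I → ℤ} (hx : x ∈ S) :
    X x ≤ Subgroup.normalizer (RGD.Sup X (S \ {x}) : Set Y) := by
  refine nrm_pos R cm (hS hx) (fun y hy => hS hy.1) fun y hy hxy z hz => ⟨hc x hx y hy.1 hxy z hz, ?_⟩
  exact btwn_ne_left (hS hx).1 (hS hy.1).1 (hS hx).2 (hS hy.1).2 hxy (bw_btwn hz)

theorem ac_peel {S : Set (I → ℤ)} (hS : S ⊆ RGD.Pos cs h) (hc : AC cs h S) {x : I → ℤ} (hx : x ∈ S) {g : Y} :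
    g ∈ RGD.Sup X S ↔ ∃ a ∈ X x, ∃ b ∈ RGD.Sup X (S \ {x}), g = a * b := by
  constructor
  · intro hg
    have h1 : g ∈ ((X x ⊔ RGD.Sup X (S \ {x}) : Subgroup Y) : Set Y) := by rw [← sup_peel hx]; exact hg
    rw [Subgroup.coe_mul_of_left_le_normalizer_right _ _ (ac_normalizer R cm hS hc hx), Set.mem_mul] at h1
    obtain ⟨a, ha, b, hb, e⟩ := h1
    exact ⟨a, ha, b, hb, e.symm⟩
  · rintro ⟨a, ha, b, hb, rfl⟩
    exact mul_mem (RGD.le_Sup hx ha) (RGD.Sup_mono Set.sdiff_subset hb)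

omit R cm in
/-- `S \ {w α_i}` is closed if `S ⊆ Fut w` is. -/
theorem ac_diff {w : W} {i : I} (hw : 0 ≤ rep cs h w (sr i)) {S : Set (I → ℤ)} (hS : S ⊆ Fut cs h w)
    (hc : AC cs h S) : AC cs h (S \ {rep cs h w (sr i)}) := by
  intro x hx y hy hne z hz
  have h1 : S \ {rep cs h w (sr i)} ⊆ Fut cs h (w * cs.simple i) := by
    rw [fut_mul hw]
    exact Set.sdiff_subset_sdiff_left hS
  have h2 := closed_fut (w * cs.simple i) x (h1 hx) y (h1 hy) z (bw_btwn hz)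
  rw [fut_mul hw] at h2
  exact ⟨hc x hx.1 y hy.1 hne z hz, h2.2⟩

/-- **Unique factorisation** -/
theorem inf_ac_fut [Finite W] (w : W) {S S' : Set (I → ℤ)} (hS : S ⊆ Fut cs h w) (hS' : S' ⊆ Fut cs h w)
    (hc : AC cs h S) (hc' : AC cs h S') : RGD.Sup X S ⊓ RGD.Sup X S' = RGD.Sup X (S ∩ S') := by
  induction hn : (Fut cs h w).ncard generalizing w S S' with
  | zero =>
    have h1 := (Set.ncard_eq_zero (finite_fut w)).1 hn
    rw [h1, Set.subset_empty_iff] at hS hS'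
    subst hS hS'
    rw [Set.inter_self, inf_idem]
  | succ k ih =>
    have hne : (Fut cs h w).Nonempty := by
      rw [Set.nonempty_iff_ne_empty]
      intro h1
      rw [h1, Set.ncard_empty] at hn
      omega
    obtain ⟨y, hy⟩ := hne
    obtain ⟨i, hi⟩ := exists_simple hy
    set x := rep cs h w (sr i) with hxdef
    have hcard : (Fut cs h (w * cs.simple i)).ncard = k := by
      rw [fut_mul hi, Set.ncard_sdiff_singleton_of_mem (mem_fut hi), hn]
      rfl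
    have hsub : ∀ {S : Set (I → ℤ)}, S ⊆ Fut cs h w → S \ {x} ⊆ Fut cs h (w * cs.simple i) := by
      intro S hS
      rw [fut_mul hi]
      exact Set.sdiff_subset_sdiff_left hS
    have key := ih (w * cs.simple i) (hsub hS) (hsub hS') (ac_diff hi hS hc) (ac_diff hi hS' hc') hcard
    have htail : ∀ a ∈ X x, a ∈ RGD.Sup X (Fut cs h (w * cs.simple i)) → a = 1 := by
      intro a ha ha'
      have h1 : a ∈ X x ⊓ RGD.Sup X (Fut cs h (w * cs.simple i)) := ⟨ha, ha'⟩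
      rw [hxdef, tail_inf R, Subgroup.mem_bot] at h1
      exact h1
    have hmono : ∀ {S : Set (I → ℤ)}, S ⊆ Fut cs h w → RGD.Sup X (S \ {x}) ≤ RGD.Sup X (Fut cs h (w * cs.simple i)) :=
      fun hS => RGD.Sup_mono (hsub hS)
    have hpos : ∀ {S : Set (I → ℤ)}, S ⊆ Fut cs h w → S ⊆ RGD.Pos cs h := fun hS => hS.trans (fut_subset_pos w)
    have hdiff : ∀ {S : Set (I → ℤ)}, x ∉ S → S \ {x} = S := fun hx => Set.sdiff_singleton_eq_self hx
    apply le_antisymm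
    · rintro g ⟨hg, hg'⟩
      by_cases hx : x ∈ S
      · obtain ⟨a, ha, b, hb, e⟩ := (ac_peel R cm (hpos hS) hc hx).1 hg
        by_cases hx' : x ∈ S'
        · obtain ⟨a', ha', b', hb', e'⟩ := (ac_peel R cm (hpos hS') hc' hx').1 hg'
          have h1 : a'⁻¹ * a = b' * b⁻¹ := by
            have h2 : a * b = a' * b' := by rw [← e, ← e']
            have h3 : a'⁻¹ * a = a'⁻¹ * (a * b) * b⁻¹ := by group
            rw [h3, h2]; group
          have h2 : a'⁻¹ * a = 1 := by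
            refine htail _ (mul_mem (inv_mem ha') ha) ?_
            rw [h1]
            exact mul_mem (hmono hS' hb') (inv_mem (hmono hS hb))
          have h3 : b' = b := by
            rw [h2] at h1
            exact (mul_inv_eq_one.1 h1.symm)
          have h4 : b ∈ RGD.Sup X (S \ {x}) ⊓ RGD.Sup X (S' \ {x}) := ⟨hb, h3 ▸ hb'⟩
          rw [key] at h4
          rw [e]
          exact mul_mem (RGD.le_Sup (S := S ∩ S') ⟨hx, hx'⟩ ha) (RGD.Sup_mono (Set.inter_subset_inter Set.sdiff_subset Set.sdiff_subset) h4)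
        · have h1 : a = 1 := by
            refine htail _ ha ?_
            have h2 : a = g * b⁻¹ := by rw [e]; group
            rw [h2]
            refine mul_mem ?_ (inv_mem (hmono hS hb))
            rw [← hdiff hx'] at hg'
            exact hmono hS' hg'
          have h4 : g ∈ RGD.Sup X (S \ {x}) ⊓ RGD.Sup X (S' \ {x}) := by
            refine ⟨?_, by rw [hdiff hx']; exact hg'⟩
            rw [e, h1, one_mul]; exact hb
          rw [key] at h4
          exact RGD.Sup_mono (Set.inter_subset_inter Set.sdiff_subset Set.sdiff_subset) h4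
      · by_cases hx' : x ∈ S'
        · obtain ⟨a, ha, b, hb, e⟩ := (ac_peel R cm (hpos hS') hc' hx').1 hg'
          have h1 : a = 1 := by
            refine htail _ ha ?_
            have h2 : a = g * b⁻¹ := by rw [e]; group
            rw [h2]
            refine mul_mem ?_ (inv_mem (hmono hS' hb))
            rw [← hdiff hx] at hg
            exact hmono hS hg
          have h4 : g ∈ RGD.Sup X (S \ {x}) ⊓ RGD.Sup X (S' \ {x}) := by
            refine ⟨by rw [hdiff hx]; exact hg, ?_⟩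
            rw [e, h1, one_mul]; exact hb
          rw [key] at h4
          exact RGD.Sup_mono (Set.inter_subset_inter Set.sdiff_subset Set.sdiff_subset) h4
        · have h4 : g ∈ RGD.Sup X (S \ {x}) ⊓ RGD.Sup X (S' \ {x}) := by
            rw [hdiff hx, hdiff hx']; exact ⟨hg, hg'⟩
          rw [key] at h4
          exact RGD.Sup_mono (Set.inter_subset_inter Set.sdiff_subset Set.sdiff_subset) h4
    · exact le_inf (RGD.Sup_mono Set.inter_subset_left) (RGD.Sup_mono Set.inter_subset_right)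

theorem inf_ac [Finite W] {S S' : Set (I → ℤ)} (hS : S ⊆ RGD.Pos cs h) (hS' : S' ⊆ RGD.Pos cs h)
    (hc : AC cs h S) (hc' : AC cs h S') : RGD.Sup X S ⊓ RGD.Sup X S' = RGD.Sup X (S ∩ S') := by
  rw [← fut_one] at hS hS'
  exact inf_ac_fut R cm 1 hS hS' hc hc'

/-- transport of coordinates -/
theorem ac_transport [Finite W] {w : W} {k v : Y} (hk : Rp cs R.nsys w k) (hv : v ∈ RGD.Sup X (RGD.Pos cs h))
    {S : Set (I → ℤ)} (hS : S ⊆ RGD.Pos cs h) (hc : AC cs h S) (hkv : k * v * k⁻¹ ∈ RGD.Sup X S) :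
    v ∈ RGD.Sup X {x | x ∈ RGD.Pos cs h ∧ rep cs h w x ∈ S} := by
  have h1 : v ∈ RGD.Sup X (PW cs h w) := by
    have := mem_PW_of_conj R hk.inv hv (by
      rw [inv_inv]
      exact RGD.U_le_B (RGD.Sup_mono hS hkv))
    rwa [inv_inv] at this
  have h2 : k * v * k⁻¹ ∈ RGD.Sup X (Fut cs h w) := by
    refine conj_mem_Sup R hk (fun x hx => hx.1) (fun x hx => ?_) h1
    exact ⟨hx.1.act _, hx.2.2, by rw [rep_inv_apply]; exact hx.2.1⟩
  have h3 : k * v * k⁻¹ ∈ RGD.Sup X (S ∩ Fut cs h w) := by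
    rw [← inf_ac R cm hS (fut_subset_pos w) hc (ac_of_closed (closed_fut w))]
    exact ⟨hkv, h2⟩
  have h4 := conj_mem_Sup' R hk (S' := {x | x ∈ RGD.Pos cs h ∧ rep cs h w x ∈ S})
    (fun x hx => hx.2.1) (fun x hx => ?_) h3
  · have e : k⁻¹ * (k * v * k⁻¹) * k = v := by group
    rwa [e] at h4
  · refine ⟨⟨hx.2.1.act _, hx.2.2.2⟩, ?_⟩
    rw [rep_apply_inv]
    exact hx.1

end

/-! ### supports -/

/-- the additively closed support -/
def Sa (cs : CoxeterSystem M W) (h : IsCartan M A) (X : (I → ℤ) → Subgroup Y) (v : Y) : Set (I → ℤ) :=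
  {x | ∀ S, S ⊆ RGD.Pos cs h → AC cs h S → v ∈ RGD.Sup X S → x ∈ S}

theorem sa_subset {v : Y} {S : Set (I → ℤ)} (hS : S ⊆ RGD.Pos cs h) (hc : AC cs h S) (hv : v ∈ RGD.Sup X S) :
    Sa cs h X v ⊆ S := fun _ hx => hx S hS hc hv

theorem sa_pos {v : Y} (hv : v ∈ RGD.Sup X (RGD.Pos cs h)) : Sa cs h X v ⊆ RGD.Pos cs h :=
  sa_subset (fun _ h => h) ac_pos hv

theorem ac_sa (v : Y) : AC cs h (Sa cs h X v) := fun x hx y hy hne z hz S h1 h2 h3 =>
  h2 x (hx S h1 h2 h3) y (hy S h1 h2 h3) hne z hz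

section

variable (R : RGD cs h p T n X) (cm : CM cs h X) [Finite W]

include R cm

theorem mem_sa {v : Y} (hv : v ∈ RGD.Sup X (RGD.Pos cs h)) : v ∈ RGD.Sup X (Sa cs h X v) := by
  have hfin : {S : Set (I → ℤ) | S ⊆ RGD.Pos cs h ∧ AC cs h S ∧ v ∈ RGD.Sup X S}.Finite :=
    (finite_pos (cs := cs) (h := h)).finite_subsets.subset fun S hS => hS.1
  obtain ⟨S, ⟨h1, h2, h3⟩, hmin⟩ := Set.exists_min_image _ Set.ncard hfin ⟨RGD.Pos cs h, fun _ h => h, ac_pos, hv⟩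
  have hS : Sa cs h X v = S := by
    apply le_antisymm (sa_subset h1 h2 h3)
    intro x hx S' a b c
    have h4 : v ∈ RGD.Sup X (S ∩ S') := by
      rw [← inf_ac R cm h1 a h2 b]
      exact ⟨h3, c⟩
    have h5 := hmin (S ∩ S') ⟨Set.inter_subset_left.trans h1, h2.inter b, h4⟩
    have h6 : S ∩ S' = S :=
      Set.eq_of_subset_of_ncard_le Set.inter_subset_left h5 ((finite_pos (cs := cs) (h := h)).subset h1)
    exact (h6.ge hx).2
  rw [hS]
  exact h3

omit R cm [Finite W] in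
theorem closed_notJ (J : Set I) : Closed cs h (NotJ cs h J) := by
  intro x hx y hy z hz
  obtain ⟨hxr, hx0, k, hk, hk0⟩ := hx
  have h1 : 0 ≤ z := RGD.nonneg_of_btwn hx0 hy.2.1 hz
  exact ⟨hz.1, h1, k, hk, btwn_apply_pos hz hk0 (hy.2.1 k)⟩

omit R cm [Finite W] in
theorem ac_notJ (J : Set I) : AC cs h (NotJ cs h J) := ac_of_closed (closed_notJ J)

omit R cm [Finite W] in
theorem mem_notJ_single {i : I} {x : I → ℤ} : x ∈ NotJ cs h {i} ↔ x ∈ RGD.Pos cs h ∧ x ≠ sr i := by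
  constructor
  · rintro ⟨h1, h2, k, hk, hk0⟩
    refine ⟨⟨h1, h2⟩, ?_⟩
    rintro rfl
    rw [sr_ne (fun e => hk (by rw [e]; rfl))] at hk0
    exact absurd hk0 (lt_irrefl _)
  · rintro ⟨⟨h1, h2⟩, h3⟩
    obtain ⟨k, hk, hk0⟩ := RGD.exists_coeff h1 h2 h3
    exact ⟨h1, h2, k, hk, hk0⟩

theorem mem_Sup_iff {v : Y} (hv : v ∈ RGD.Sup X (RGD.Pos cs h)) {S : Set (I → ℤ)}
    (hS : S ⊆ RGD.Pos cs h) (hc : AC cs h S) : v ∈ RGD.Sup X S ↔ Sa cs h X v ⊆ S :=
  ⟨fun h1 => sa_subset hS hc h1, fun h1 => RGD.Sup_mono h1 (mem_sa R cm hv)⟩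

theorem mem_VJ_iff {v : Y} (hv : v ∈ RGD.Sup X (RGD.Pos cs h)) {J : Set I} :
    v ∈ VJ cs h X J ↔ Sa cs h X v ⊆ NotJ cs h J :=
  mem_Sup_iff R cm hv (fun _ hx => ⟨hx.1, hx.2.1⟩) (ac_notJ J)

theorem mem_VJ_single {v : Y} (hv : v ∈ RGD.Sup X (RGD.Pos cs h)) {i : I} :
    v ∈ VJ cs h X {i} ↔ sr i ∉ Sa cs h X v := by
  rw [mem_VJ_iff R cm hv]
  constructor
  · intro h1 h2
    exact (mem_notJ_single.1 (h1 h2)).2 rfl
  · intro h1 x hx
    exact mem_notJ_single.2 ⟨sa_pos hv hx, fun e => h1 (e ▸ hx)⟩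

omit [Finite W] cm in
theorem conj_mem_image {w : W} {k : Y} (hk : Rp cs R.nsys w k) {S : Set (I → ℤ)}
    (hS : ∀ x ∈ S, IsRoot cs h x) {v : Y} (hv : v ∈ RGD.Sup X S) :
    k * v * k⁻¹ ∈ RGD.Sup X (rep cs h w '' S) := by
  have h1 : cj k (RGD.Sup X S) ≤ RGD.Sup X (rep cs h w '' S) := by
    rw [RGD.cj_Sup]
    refine iSup_le ?_
    rintro ⟨z, hz⟩
    rw [R.conj_rp hk (hS z hz)]
    exact RGD.le_Sup ⟨z, hz, rfl⟩
  exact h1 (conj_mem_cj.2 hv)

/-- the support of a conjugate in `U` -/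
theorem nonneg_of_conj {w : W} {k v : Y} (hk : Rp cs R.nsys w k)
    (hv : v ∈ RGD.Sup X (RGD.Pos cs h)) (hkv : k * v * k⁻¹ ∈ RGD.Sup X (RGD.Pos cs h)) {x : I → ℤ}
    (hx : x ∈ Sa cs h X v) : 0 ≤ rep cs h w x := by
  have h1 := ac_transport R cm hk hv (fun _ h => h) ac_pos hkv
  exact (sa_subset (fun _ h => h.1) (ac_pre ac_pos w) h1 hx).2.2

theorem mem_U_of_sa {w : W} {k v : Y} (hk : Rp cs R.nsys w k)
    (hv : v ∈ RGD.Sup X (RGD.Pos cs h)) (hw : ∀ x ∈ Sa cs h X v, 0 ≤ rep cs h w x) :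
    k * v * k⁻¹ ∈ RGD.Sup X (RGD.Pos cs h) := by
  refine RGD.Sup_mono ?_ (conj_mem_image R hk (fun x hx => (sa_pos hv hx).1) (mem_sa R cm hv))
  rintro _ ⟨x, hx, rfl⟩
  exact ⟨(sa_pos hv hx).1.act w, hw x hx⟩

theorem sa_conj {w : W} {k v : Y} (hk : Rp cs R.nsys w k)
    (hv : v ∈ RGD.Sup X (RGD.Pos cs h)) (hw : ∀ x ∈ Sa cs h X v, 0 ≤ rep cs h w x) :
    Sa cs h X (k * v * k⁻¹) = rep cs h w '' Sa cs h X v := by
  have hU := mem_U_of_sa R cm hk hv hw
  apply le_antisymm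
  · refine sa_subset ?_ (ac_image (ac_sa v) w) (conj_mem_image R hk (fun x hx => (sa_pos hv hx).1) (mem_sa R cm hv))
    rintro _ ⟨x, hx, rfl⟩
    exact ⟨(sa_pos hv hx).1.act w, hw x hx⟩
  · rintro _ ⟨x, hx, rfl⟩
    have h1 := ac_transport R cm hk hv (sa_pos hU) (ac_sa _) (mem_sa R cm hU)
    exact (sa_subset (fun _ h => h.1) (ac_pre (ac_sa _) w) h1 hx).2

end

end Cfsg.Agent.H255.SN6
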