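import Cfsg.Agent.H255.SN6.Cmt

/-!
# Commutators of a long and a short root group at 135 degrees (helper255, for S3831, task T4c)

`C2 cs x y` : `x` long, `y` short, positive, at 135 degrees; `a ∈ X x`, `a ≠ 1`, `t ∈ X y`: `[t, a] = f g`, `f ∈ X (x + y)`,
`g ∈ X (x + 2 y)`.
* `C2.f_ne`, `C2.g_ne` : `f ≠ 1`, `g ≠ 1` for `t ≠ 1`;
* `C2.surj` : every `f` occurs;
* `C2.quad` : every `g ≠ 1` occurs, if `|X (x + 2 y)| = 3`, `|X y| = 9`.
-/

set_option autoImplicit false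
set_option linter.unusedSectionVars false

namespace Cfsg.Agent.H255.SN6

open CoxeterSystem Cfsg.Agent.ChevalleyStructure.CoxeterGeom Cfsg.Agent.Tits.Roots Cfsg.Agent.Tits.Core
  Cfsg.Agent.Tits.RootComb Cfsg.Agent.Tits.Exchange Cfsg.Agent.Nodes.Reps Cfsg.Agent.Nodes.BNOf
  Cfsg.Agent.Nodes.Coroot Cfsg.Agent.Nodes.RGDTwE6 Cfsg.Agent.KFacts.TwESix.Comb Cfsg.Agent.KFacts.TwESix.Btw
  Cfsg.Agent.KFacts.RgdTI Cfsg.Agent.KFacts.RgdSL
open scoped commutatorElement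

theorem c2_rts : ∀ x ∈ rts, bf x x = 4 → ∀ y ∈ rts, bf y y = 2 → bf x y = -2 →
    (x + y ∈ rts ∧ x + y + y ∈ rts) ∧ ∀ z ∈ rts,
      ((z = y + x ∨ z = y + y + x ∨ z = y + x + x) → z = x + y ∨ z = x + y + y) ∧
      ((z = y + (x + y) ∨ z = y + y + (x + y) ∨ z = y + (x + y) + (x + y)) → z = x + y + y) ∧
      (¬ (z = x + (x + y) ∨ z = x + x + (x + y) ∨ z = x + (x + y) + (x + y))) ∧
      (¬ (z = y + (x + y + y) ∨ z = y + y + (x + y + y) ∨ z = y + (x + y + y) + (x + y + y))) ∧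
      ((z = -y + (x + y + y) ∨ z = -y + -y + (x + y + y) ∨ z = -y + (x + y + y) + (x + y + y)) → z = x + y ∨ z = x) := by
  decide +kernel

variable {W Y : Type*} [Group W] [Group Y] {cs : CoxeterSystem CoxeterMatrix.F₄ W} {p : ℕ} {T : Subgroup Y}
  {n : Fin 4 → Y} {X : (Fin 4 → ℤ) → Subgroup Y}

/-- `x` long, `y` short, positive, at 135 degrees -/
structure C2 (cs : CoxeterSystem CoxeterMatrix.F₄ W) (x y : Fin 4 → ℤ) : Prop where
  px : x ∈ RGD.Pos cs isCartan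
  py : y ∈ RGD.Pos cs isCartan
  xx : bf x x = 4
  yy : bf y y = 2
  xy : bf x y = -2

theorem bw_comm {x y z : Fin 4 → ℤ} (hz : z ∈ bw cs isCartan x y) : z ∈ bw cs isCartan y x := by
  obtain ⟨h1, rfl | rfl | rfl⟩ := hz
  · exact ⟨h1, Or.inl (add_comm _ _)⟩
  · exact ⟨h1, Or.inr (Or.inr (by abel))⟩
  · exact ⟨h1, Or.inr (Or.inl (by abel))⟩

theorem ac_single {x : Fin 4 → ℤ} : AC cs isCartan {x} := by
  intro a ha b hb hne
  rw [Set.mem_singleton_iff] at ha hb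
  exact absurd (ha.trans hb.symm) hne

theorem ac_pair {x y : Fin 4 → ℤ} (hxy : ∀ z, z ∉ bw cs isCartan x y) : AC cs isCartan {x, y} := by
  intro a ha b hb hne z hz
  exfalso
  rcases ha with ha | ha <;> rcases hb with hb | hb
  · exact hne (ha.trans hb.symm)
  · rw [ha, Set.mem_singleton_iff.1 hb] at hz
    exact hxy z hz
  · rw [Set.mem_singleton_iff.1 ha, hb] at hz
    exact hxy z (bw_comm hz)
  · exact hne ((Set.mem_singleton_iff.1 ha).trans (Set.mem_singleton_iff.1 hb).symm)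

theorem eq_one_of_disj [Finite W] (R : RGD cs isCartan p T n X) (cm : CM cs isCartan X) {S S' : Set (Fin 4 → ℤ)}
    (hS : S ⊆ RGD.Pos cs isCartan) (hS' : S' ⊆ RGD.Pos cs isCartan) (hc : AC cs isCartan S) (hc' : AC cs isCartan S')
    (hd : ∀ z ∈ S, z ∉ S') {g : Y} (hg : g ∈ RGD.Sup X S) (hg' : g ∈ RGD.Sup X S') : g = 1 := by
  have h1 : g ∈ RGD.Sup X (S ∩ S') := by
    rw [← inf_ac R cm hS hS' hc hc']
    exact ⟨hg, hg'⟩
  have h2 : RGD.Sup X (S ∩ S') ≤ ⊥ := RGD.Sup_le fun z hz => absurd hz.2 (hd z hz.1)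
  exact Subgroup.mem_bot.1 (h2 h1)

namespace C2

variable {x y : Fin 4 → ℤ} (H : C2 cs x y)

include H

theorem ps : x + y ∈ RGD.Pos cs isCartan :=
  ⟨(mem_rts cs).2 (c2_rts x ((mem_rts cs).1 H.px.1) H.xx y ((mem_rts cs).1 H.py.1) H.yy H.xy).1.1,
    add_nonneg H.px.2 H.py.2⟩

theorem pl : x + y + y ∈ RGD.Pos cs isCartan :=
  ⟨(mem_rts cs).2 (c2_rts x ((mem_rts cs).1 H.px.1) H.xx y ((mem_rts cs).1 H.py.1) H.yy H.xy).1.2,
    add_nonneg (add_nonneg H.px.2 H.py.2) H.py.2⟩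

theorem b1 {z : Fin 4 → ℤ} (hz : z ∈ bw cs isCartan y x) : z = x + y ∨ z = x + y + y :=
  ((c2_rts x ((mem_rts cs).1 H.px.1) H.xx y ((mem_rts cs).1 H.py.1) H.yy H.xy).2 z ((mem_rts cs).1 hz.1)).1 hz.2

theorem b2 {z : Fin 4 → ℤ} (hz : z ∈ bw cs isCartan y (x + y)) : z = x + y + y :=
  ((c2_rts x ((mem_rts cs).1 H.px.1) H.xx y ((mem_rts cs).1 H.py.1) H.yy H.xy).2 z ((mem_rts cs).1 hz.1)).2.1 hz.2

theorem b3 (z : Fin 4 → ℤ) : z ∉ bw cs isCartan x (x + y) := fun hz =>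
  ((c2_rts x ((mem_rts cs).1 H.px.1) H.xx y ((mem_rts cs).1 H.py.1) H.yy H.xy).2 z ((mem_rts cs).1 hz.1)).2.2.1 hz.2

theorem b4 (z : Fin 4 → ℤ) : z ∉ bw cs isCartan y (x + y + y) := fun hz =>
  ((c2_rts x ((mem_rts cs).1 H.px.1) H.xx y ((mem_rts cs).1 H.py.1) H.yy H.xy).2 z ((mem_rts cs).1 hz.1)).2.2.2.1 hz.2

theorem b5 {z : Fin 4 → ℤ} (hz : z ∈ bw cs isCartan (-y) (x + y + y)) : z = x + y ∨ z = x :=
  ((c2_rts x ((mem_rts cs).1 H.px.1) H.xx y ((mem_rts cs).1 H.py.1) H.yy H.xy).2 z ((mem_rts cs).1 hz.1)).2.2.2.2 hz.2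

theorem bss : bf (x + y) (x + y) = 2 := by
  rw [bf_add_left, bf_add_right, bf_add_right, bf_comm y x, H.xx, H.yy, H.xy]; norm_num

theorem bll : bf (x + y + y) (x + y + y) = 4 := by
  simp only [bf_add_left, bf_add_right, bf_comm y x, H.xx, H.yy, H.xy]; norm_num

theorem bsl : bf (x + y) (x + y + y) = 2 := by
  simp only [bf_add_left, bf_add_right, bf_comm y x, H.xx, H.yy, H.xy]; norm_num

theorem byl : bf y (x + y + y) = 2 := by
  simp only [bf_add_left, bf_add_right, bf_comm y x, H.xx, H.yy, H.xy]; norm_num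

theorem bxl : bf x (x + y + y) = 0 := by
  simp only [bf_add_left, bf_add_right, bf_comm y x, H.xx, H.yy, H.xy]; norm_num

theorem bys : bf y (x + y) = 0 := by
  simp only [bf_add_left, bf_add_right, bf_comm y x, H.xx, H.yy, H.xy]; norm_num

theorem bxs : bf x (x + y) = 2 := by
  simp only [bf_add_left, bf_add_right, bf_comm y x, H.xx, H.yy, H.xy]; norm_num

theorem nxy : x ≠ y := fun e => by have := H.xx; rw [e, H.yy] at this; omega

theorem nxs : x ≠ x + y := fun e => by have := H.xx; rw [e, H.bss] at this; omega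

theorem nys : y ≠ x + y := fun e => by have h1 := H.bys; rw [← e, H.yy] at h1; omega

theorem nyl : y ≠ x + y + y := fun e => by have h1 := H.byl; rw [← e] at h1; have := H.bll; rw [← e, H.yy] at this; omega

theorem nsl : x + y ≠ x + y + y := fun e => by have h1 := H.bll; rw [← e, H.bss] at h1; omega

theorem nxl : x ≠ x + y + y := fun e => by have h1 := H.bxl; rw [← e, H.xx] at h1; omega

variable (R : RGD cs isCartan p T n X) (hL : LR R (sr 0))

include R hL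

theorem sl {u v : Y} (hu : u ∈ X (x + y)) (hv : v ∈ X (x + y + y)) : u * v = v * u :=
  comm_long R hL H.ps.1 H.pl.1 H.bll (by rw [H.bsl]; norm_num) hu hv

theorem yl {u v : Y} (hu : u ∈ X y) (hv : v ∈ X (x + y + y)) : u * v = v * u :=
  comm_long R hL H.py.1 H.pl.1 H.bll (by rw [H.byl]; norm_num) hu hv

theorem xl {u v : Y} (hu : u ∈ X x) (hv : v ∈ X (x + y + y)) : u * v = v * u :=
  comm_long R hL H.px.1 H.pl.1 H.bll (by rw [H.bxl]) hu hv

theorem sx {u v : Y} (hu : u ∈ X (x + y)) (hv : v ∈ X x) : u * v = v * u :=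
  comm_long R hL H.ps.1 H.px.1 H.xx (by rw [bf_comm, H.bxs]; norm_num) hu hv

theorem dec {c : Y} (hc : c ∈ X (x + y) ⊔ X (x + y + y)) : ∃ f ∈ X (x + y), ∃ g ∈ X (x + y + y), c = f * g := by
  have hle : X (x + y) ≤ Subgroup.normalizer (X (x + y + y) : Set Y) := by
    intro c hc
    rw [Subgroup.mem_normalizer_iff]
    intro d
    constructor
    · intro hd
      rw [H.sl R hL hc hd, mul_inv_cancel_right]; exact hd
    · intro hd
      have h2 := H.sl R hL hc hd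
      have e : d = c⁻¹ * (c * d * c⁻¹ * c) := by group
      rw [← h2] at e
      rw [e, inv_mul_cancel_left]; exact hd
  rw [← SetLike.mem_coe, Subgroup.coe_mul_of_left_le_normalizer_right _ _ hle] at hc
  obtain ⟨w', hw', z, hz, e⟩ := hc
  exact ⟨w', hw', z, hz, e.symm⟩

variable [Finite W]

theorem com {t a : Y} (ht : t ∈ X y) (ha : a ∈ X x) :
    ∃ f ∈ X (x + y), ∃ g ∈ X (x + y + y), ⁅t, a⁆ = f * g := by
  refine H.dec R hL ?_
  have h1 := cm_of_lr R hL y x H.py.1 H.px.1 H.nxy.symm (pos_ne_neg H.py H.px) t ht a ha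
  refine (RGD.Sup_le (fun z hz => ?_) : RGD.Sup X (bw cs isCartan y x) ≤ _) h1
  rcases H.b1 hz with e | e
  · rw [e]; exact le_sup_left
  · rw [e]; exact le_sup_right

theorem ys {t f : Y} (ht : t ∈ X y) (hf : f ∈ X (x + y)) : ⁅t, f⁆ ∈ X (x + y + y) := by
  have h1 := cm_of_lr R hL y (x + y) H.py.1 H.ps.1 H.nys (pos_ne_neg H.py H.ps) t ht f hf
  refine (RGD.Sup_le (fun z hz => ?_) : RGD.Sup X (bw cs isCartan y (x + y)) ≤ _) h1
  rw [H.b2 hz]

theorem uniq {f g f' g' : Y} (hf : f ∈ X (x + y)) (hg : g ∈ X (x + y + y)) (hf' : f' ∈ X (x + y))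
    (hg' : g' ∈ X (x + y + y)) (e : f * g = f' * g') : f = f' ∧ g = g' := by
  have h1 : f'⁻¹ * f = g' * g⁻¹ := by
    have : f'⁻¹ * f = f'⁻¹ * (f * g) * g⁻¹ := by group
    rw [this, e]; group
  have h2 : f'⁻¹ * f = 1 := by
    refine eq_one_of_disj R (cm_of_lr R hL) (S := {x + y}) (S' := {x + y + y}) (Set.singleton_subset_iff.2 H.ps)
      (Set.singleton_subset_iff.2 H.pl) ac_single ac_single ?_ (RGD.le_Sup (Set.mem_singleton _) (mul_mem (inv_mem hf') hf))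
      (RGD.le_Sup (Set.mem_singleton _) (by rw [h1]; exact mul_mem hg' (inv_mem hg)))
    rintro z hz hz'
    rw [Set.mem_singleton_iff] at hz hz'
    exact H.nsl (hz.symm.trans hz')
  have h3 : f = f' := (inv_mul_eq_one.1 h2).symm
  rw [h3] at e
  exact ⟨h3, mul_left_cancel e⟩

/-- `f ≠ 1` -/
theorem f_ne {t a f g : Y} (ht : t ∈ X y) (ht1 : t ≠ 1) (ha : a ∈ X x) (ha1 : a ≠ 1)
    (hg : g ∈ X (x + y + y)) (e : ⁅t, a⁆ = f * g) : f ≠ 1 := by
  rintro rfl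
  rw [one_mul] at e
  obtain ⟨s, hs, c, hc, d, hd, m, hm, hme⟩ := exists_mu R H.px.1 ha ha1
  have hxn := H.px.1.neg
  have hbn : bf (-x) (-x) = 4 := by rw [bf_neg_left, bf_neg_right, neg_neg, H.xx]
  have tc : t * c⁻¹ = c⁻¹ * t := comm_long R hL H.py.1 hxn hbn (by
    rw [bf_neg_right, bf_comm, H.xy]; norm_num) ht (inv_mem hc)
  have td : t * d⁻¹ = d⁻¹ * t := comm_long R hL H.py.1 hxn hbn (by
    rw [bf_neg_right, bf_comm, H.xy]; norm_num) ht (inv_mem hd)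
  have gc : g * c⁻¹ = c⁻¹ * g := comm_long R hL H.pl.1 hxn hbn (by
    rw [bf_neg_right, bf_comm, H.bxl]; norm_num) hg (inv_mem hc)
  have ea : a = c⁻¹ * m * d⁻¹ := by rw [hme]; group
  have e1 : t * a * t⁻¹ = g * a := by
    rw [← e, commutatorElement_def]; group
  have e2 : t * a * t⁻¹ = c⁻¹ * (t * m * t⁻¹) * d⁻¹ := by
    calc t * a * t⁻¹ = (t * c⁻¹) * m * d⁻¹ * t⁻¹ := by rw [ea]; group
      _ = c⁻¹ * t * m * (d⁻¹ * t⁻¹) := by rw [tc]; group
      _ = c⁻¹ * t * m * (t⁻¹ * d⁻¹) := by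
          have : d⁻¹ * t⁻¹ = t⁻¹ * d⁻¹ := by
            have h : t⁻¹ * (t * d⁻¹) * t⁻¹ = t⁻¹ * (d⁻¹ * t) * t⁻¹ := by rw [td]
            have h1 : t⁻¹ * (t * d⁻¹) * t⁻¹ = d⁻¹ * t⁻¹ := by group
            have h2 : t⁻¹ * (d⁻¹ * t) * t⁻¹ = t⁻¹ * d⁻¹ := by group
            rw [h1, h2] at h
            exact h
          rw [this]
      _ = _ := by group
  have e3 : g * a = c⁻¹ * (g * m) * d⁻¹ := by
    calc g * a = (g * c⁻¹) * m * d⁻¹ := by rw [ea]; group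
      _ = c⁻¹ * g * m * d⁻¹ := by rw [gc]
      _ = _ := by group
  have e4 : t * m * t⁻¹ = g * m := by
    have h1 : c⁻¹ * (t * m * t⁻¹) * d⁻¹ = c⁻¹ * (g * m) * d⁻¹ := by rw [← e2, e1, e3]
    exact mul_left_cancel (mul_right_cancel h1)
  have e5 : m * t⁻¹ * m⁻¹ = t⁻¹ * g := by
    have h1 : t⁻¹ * (t * m * t⁻¹) * m⁻¹ = m * t⁻¹ * m⁻¹ := by group
    have h2 : t⁻¹ * (g * m) * m⁻¹ = t⁻¹ * g := by group
    rw [← h1, e4, h2]
  have hcyx : cpr cs isCartan y x = -1 := by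
    have := cpr_long cs y H.px.1 H.xx
    rw [bf_comm, H.xy] at this
    omega
  have hsy : rep cs isCartan s y = x + y := by rw [hs, hcyx, neg_one_smul, sub_neg_eq_add, add_comm]
  have h1 : m * t⁻¹ * m⁻¹ ∈ X (x + y) := by
    rw [← hsy]
    exact R.conj_mem hm H.py.1 (inv_mem ht)
  have h2 : t⁻¹ * g = 1 := by
    refine eq_one_of_disj R (cm_of_lr R hL) (S := {x + y}) (S' := {y, x + y + y}) (Set.singleton_subset_iff.2 H.ps)
      ?_ ac_single (ac_pair H.b4) ?_ (RGD.le_Sup (Set.mem_singleton _) (by rw [← e5]; exact h1))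
      (mul_mem (RGD.le_Sup (Set.mem_insert _ _) (inv_mem ht)) (RGD.le_Sup (Set.mem_insert_of_mem _ (Set.mem_singleton _)) hg))
    · rintro z (hz | hz)
      · rw [hz]; exact H.py
      · rw [Set.mem_singleton_iff.1 hz]; exact H.pl
    · rintro z hz (hz' | hz')
      · rw [Set.mem_singleton_iff] at hz
        exact H.nys (hz'.symm.trans hz)
      · rw [Set.mem_singleton_iff] at hz hz'
        exact H.nsl (hz.symm.trans hz')
  have h3 : g = t := (inv_mul_eq_one.1 h2).symm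
  apply ht1
  refine eq_one_of_disj R (cm_of_lr R hL) (S := {y}) (S' := {x + y + y}) (Set.singleton_subset_iff.2 H.py)
    (Set.singleton_subset_iff.2 H.pl) ac_single ac_single ?_ (RGD.le_Sup (Set.mem_singleton _) ht) (RGD.le_Sup (Set.mem_singleton _) (h3 ▸ hg))
  rintro z hz hz'
  rw [Set.mem_singleton_iff] at hz hz'
  exact H.nyl (hz.symm.trans hz')

/-- `g ≠ 1` -/
theorem g_ne {t a f g : Y} (ht : t ∈ X y) (ht1 : t ≠ 1) (ha : a ∈ X x) (ha1 : a ≠ 1)
    (hf : f ∈ X (x + y)) (e : ⁅t, a⁆ = f * g) : g ≠ 1 := by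
  rintro rfl
  rw [mul_one] at e
  obtain ⟨s, hs, c, hc, d, hd, m, hm, hme⟩ := exists_mu R H.py.1 ht ht1
  have hyn := H.py.1.neg
  have da : d⁻¹ * a = a * d⁻¹ := comm_long R hL hyn H.px.1 H.xx (by
    rw [bf_neg_left, bf_comm, H.xy]; norm_num) (inv_mem hd) ha
  have et : t = c⁻¹ * m * d⁻¹ := by rw [hme]; group
  -- `e₁ = m a m⁻¹`
  have hcxy : cpr cs isCartan x y = -2 := by
    have := cpr_short cs x H.py.1 H.yy
    rw [this, H.xy]
  have hsx : rep cs isCartan s x = x + y + y := by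
    rw [hs, hcxy]
    module
  have he1 : m * a * m⁻¹ ∈ X (x + y + y) := by
    rw [← hsx]
    exact R.conj_mem hm H.px.1 ha
  have h1 : t * a * t⁻¹ = ⁅c⁻¹, m * a * m⁻¹⁆ * (m * a * m⁻¹) := by
    calc t * a * t⁻¹ = c⁻¹ * m * (d⁻¹ * a) * d * m⁻¹ * c := by rw [et]; group
      _ = c⁻¹ * m * (a * d⁻¹) * d * m⁻¹ * c := by rw [da]
      _ = _ := by rw [commutatorElement_def]; group
  have h2 : t * a * t⁻¹ = f * a := by rw [← e, commutatorElement_def]; group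
  have h3 : ⁅c⁻¹, m * a * m⁻¹⁆ ∈ RGD.Sup X ({x, x + y} : Set (Fin 4 → ℤ)) := by
    have hne : -y ≠ x + y + y := fun e => by
      have h4 : bf (-y) (-y) = bf (x + y + y) (x + y + y) := by rw [e]
      rw [bf_neg_left, bf_neg_right, neg_neg, H.yy, H.bll] at h4
      omega
    have hne' : -y ≠ -(x + y + y) := fun e => H.nyl (neg_injective e)
    have h4 := cm_of_lr R hL (-y) (x + y + y) hyn H.pl.1 hne hne' _ (inv_mem hc) _ he1
    refine RGD.Sup_mono (fun z hz => ?_) h4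
    rcases H.b5 hz with e | e
    · rw [e]; exact Set.mem_insert_of_mem _ (Set.mem_singleton _)
    · rw [e]; exact Set.mem_insert _ _
  have h4 : m * a * m⁻¹ ∈ RGD.Sup X ({x, x + y} : Set (Fin 4 → ℤ)) := by
    have h5 : m * a * m⁻¹ = ⁅c⁻¹, m * a * m⁻¹⁆⁻¹ * (f * a) := by
      rw [← h2, h1]; group
    rw [h5]
    exact mul_mem (inv_mem h3) (mul_mem (RGD.le_Sup (Set.mem_insert_of_mem _ (Set.mem_singleton _)) hf) (RGD.le_Sup (Set.mem_insert _ _) ha))
  have h5 : m * a * m⁻¹ = 1 := by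
    refine eq_one_of_disj R (cm_of_lr R hL) (S := {x + y + y}) (S' := {x, x + y}) (Set.singleton_subset_iff.2 H.pl)
      ?_ ac_single (ac_pair H.b3) ?_ (RGD.le_Sup (Set.mem_singleton _) he1) h4
    · rintro z (hz | hz)
      · rw [hz]; exact H.px
      · rw [Set.mem_singleton_iff.1 hz]; exact H.ps
    · rintro z hz (hz' | hz')
      · rw [Set.mem_singleton_iff] at hz
        exact H.nxl (hz'.symm.trans hz)
      · rw [Set.mem_singleton_iff] at hz hz'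
        exact H.nsl (hz'.symm.trans hz)
  apply ha1
  have h6 : a = m⁻¹ * (m * a * m⁻¹) * m := by group
  rw [h6, h5]; group

/-- the product -/
theorem mul {t t' a f f' g g' : Y} (ht : t ∈ X y)
    (hf : f ∈ X (x + y)) (hg : g ∈ X (x + y + y)) (hf' : f' ∈ X (x + y)) (hg' : g' ∈ X (x + y + y))
    (hab : f * f' = f' * f) (e : ⁅t, a⁆ = f * g) (e' : ⁅t', a⁆ = f' * g') :
    ⁅t * t', a⁆ = (f * f') * (g * g' * ⁅t, f'⁆) := by
  have hb := H.ys R hL ht hf'
  have c1 := H.yl R hL ht hg'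
  have c2 := H.sl R hL (mul_mem hf' hf) hb
  have c3 := H.sl R hL hf hg'
  have c4 := H.sl R hL hf' hg
  have c5 := H.sl R hL hf hb
  obtain ⟨b, hbe⟩ : ∃ b, b = ⁅t, f'⁆ := ⟨_, rfl⟩
  have h1 : ⁅t * t', a⁆ = t * ⁅t', a⁆ * t⁻¹ * ⁅t, a⁆ := by
    simp only [commutatorElement_def]; group
  have h2 : t * f' * t⁻¹ = b * f' := by rw [hbe, commutatorElement_def]; group
  have h3 : t * g' * t⁻¹ = g' := by rw [c1]; group
  rw [← hbe] at hb c2 c5 ⊢
  have hgb : g * b = b * g := by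
    -- `X l` is abelian: it is a long root group
    exact comm_long R hL H.pl.1 H.pl.1 H.bll (by rw [H.bll]; norm_num) hg hb
  have hgb' : g' * b = b * g' := comm_long R hL H.pl.1 H.pl.1 H.bll (by rw [H.bll]; norm_num) hg' hb
  have hgg : g * g' = g' * g := comm_long R hL H.pl.1 H.pl.1 H.bll (by rw [H.bll]; norm_num) hg hg'
  calc ⁅t * t', a⁆ = t * (f' * g') * t⁻¹ * (f * g) := by rw [h1, e, e']
    _ = (t * f' * t⁻¹) * (t * g' * t⁻¹) * (f * g) := by group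
    _ = b * f' * g' * f * g := by rw [h2, h3]; group
    _ = b * f' * (g' * f) * g := by group
    _ = b * f' * (f * g') * g := by rw [c3]
    _ = b * (f' * f) * (g' * g) := by group
    _ = (f' * f * b) * (g' * g) := by rw [c2]
    _ = (f * f') * (b * (g * g')) := by rw [← hab, ← hgg]; group
    _ = (f * f') * (g * g' * b) := by rw [← mul_assoc b, ← hgb, mul_assoc g b, ← hgb', ← mul_assoc g]

/-- **surjectivity** -/
theorem surj [Finite Y] (hab : ∀ u ∈ X (x + y), ∀ v ∈ X (x + y), u * v = v * u)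
    (hcard : Nat.card (X (x + y)) = Nat.card (X y)) {a : Y} (ha : a ∈ X x) (ha1 : a ≠ 1) {c : Y} (hc : c ∈ X (x + y)) :
    ∃ t ∈ X y, ∃ g ∈ X (x + y + y), ⁅t, a⁆ = c * g := by
  choose f hf g hg he using fun t : X y => H.com R hL t.2 ha
  let F : X y → X (x + y) := fun t => ⟨f t, hf t⟩
  have hinj : Function.Injective F := by
    intro t t' htt
    have h1 : f t = f t' := congrArg Subtype.val htt
    by_contra hne
    have h2 : t * t'⁻¹ ≠ 1 := fun e => hne (mul_inv_eq_one.1 e)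
    have h3 : ((t * t'⁻¹ : X y) : Y) ≠ 1 := fun e => h2 (Subtype.ext e)
    have h4 := H.mul R hL (t := ((t * t'⁻¹ : X y) : Y)) (t' := (t' : Y)) (t * t'⁻¹ : X y).2 (hf _) (hg _) (hf _) (hg _)
      (hab _ (hf _) _ (hf _)) (he (t * t'⁻¹)) (he t')
    have h5 : ((t * t'⁻¹ : X y) : Y) * (t' : Y) = t := by
      rw [Subgroup.coe_mul, Subgroup.coe_inv]; group
    rw [h5, he t] at h4
    have h6 := (H.uniq R hL (hf _) (hg _) (mul_mem (hf _) (hf _))
      (mul_mem (mul_mem (hg _) (hg _)) (H.ys R hL (t * t'⁻¹ : X y).2 (hf t'))) h4).1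
    have h7 : f (t * t'⁻¹) = 1 := by
      rw [h1] at h6
      exact (mul_eq_right.1 h6.symm)
    exact H.f_ne R hL (t * t'⁻¹ : X y).2 h3 ha ha1 (hg _) (he _) h7
  have hbij := hinj.bijective_of_nat_card_le (le_of_eq hcard)
  obtain ⟨t, ht⟩ := hbij.2 ⟨c, hc⟩
  refine ⟨t, t.2, g t, hg t, ?_⟩
  rw [he t]
  have : f t = c := congrArg Subtype.val ht
  rw [this]

/-- **the quadratic map** -/
theorem quad [Finite Y] (hab : ∀ u ∈ X (x + y), ∀ v ∈ X (x + y), u * v = v * u)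
    (hy : Nat.card (X y) = 9) (hl : Nat.card (X (x + y + y)) = 3) {a : Y} (ha : a ∈ X x) (ha1 : a ≠ 1) {e : Y}
    (he : e ∈ X (x + y + y)) (he1 : e ≠ 1) : ∃ t ∈ X y, ∃ f ∈ X (x + y), f ≠ 1 ∧ ⁅t, a⁆ = f * e := by
  by_contra hcon
  push Not at hcon
  -- the elements of `X l`
  have h3 : ∀ g ∈ X (x + y + y), g = 1 ∨ g = e ∨ g = e⁻¹ := by
    intro g hg
    have h1 : Nat.card (X (x + y + y)) = 3 := hl
    have hord : orderOf e = 3 := by
      have h2 : orderOf (⟨e, he⟩ : X (x + y + y)) ∣ 3 := hl ▸ orderOf_dvd_natCard _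
      rw [Subgroup.orderOf_mk] at h2
      rcases (Nat.dvd_prime Nat.prime_three).1 h2 with h3 | h3
      · exact absurd (orderOf_eq_one_iff.1 h3) he1
      · exact h3
    have h2 : Subgroup.zpowers e = X (x + y + y) := by
      refine Subgroup.eq_of_le_of_card_ge (by rw [Subgroup.zpowers_le]; exact he) ?_
      rw [h1, Nat.card_zpowers, hord]
    rw [← h2, ← mem_powers_iff_mem_zpowers] at hg
    obtain ⟨k, rfl⟩ := hg
    have h4 : e ^ 3 = 1 := by rw [← hord]; exact pow_orderOf_eq_one e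
    have h5 : e ^ k = e ^ (k % 3) := by
      conv_lhs => rw [← Nat.div_add_mod k 3, pow_add, pow_mul, h4, one_pow, one_mul]
    have h6 : k % 3 = 0 ∨ k % 3 = 1 ∨ k % 3 = 2 := by omega
    show e ^ k = 1 ∨ e ^ k = e ∨ e ^ k = e⁻¹
    rw [h5]
    rcases h6 with h6 | h6 | h6
    · rw [h6, pow_zero]; exact Or.inl rfl
    · rw [h6, pow_one]; exact Or.inr (Or.inl rfl)
    · right; right
      rw [h6]
      refine eq_inv_of_mul_eq_one_left ?_
      rw [← pow_succ]; exact h4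
  have hκ : ∀ t ∈ X y, t ≠ 1 → ∃ f ∈ X (x + y), ⁅t, a⁆ = f * e⁻¹ := by
    intro t ht ht1
    obtain ⟨f, hf, g, hg, h1⟩ := H.com R hL ht ha
    rcases h3 g hg with rfl | rfl | rfl
    · exact absurd rfl (H.g_ne R hL ht ht1 ha ha1 hf h1)
    · exact absurd h1 (hcon t ht f hf (H.f_ne R hL ht ht1 ha ha1 hg h1))
    · exact ⟨f, hf, h1⟩
  have hκ' : ∀ t ∈ X y, t ≠ 1 → ∀ f ∈ X (x + y), ∀ g ∈ X (x + y + y), ⁅t, a⁆ = f * g → g = e⁻¹ := by
    intro t ht ht1 f hf g hg h1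
    obtain ⟨f', hf', h2⟩ := hκ t ht ht1
    exact (H.uniq R hL hf hg hf' (inv_mem he) (h1.symm.trans h2)).2
  -- two elements
  obtain ⟨t, ht, ht1⟩ : ∃ t ∈ X y, t ≠ 1 := by
    by_contra h
    push Not at h
    have h4 : X y = ⊥ := (Subgroup.eq_bot_iff_forall _).2 h
    rw [h4, Subgroup.card_bot] at hy
    omega
  obtain ⟨t', ht', h1, h2, h4⟩ : ∃ t' ∈ X y, t' ≠ 1 ∧ t' ≠ t ∧ t' ≠ t⁻¹ := by
    by_contra h
    push Not at h
    have h4 : (X y : Set Y) ⊆ {1, t, t⁻¹} := by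
      intro z hz
      by_cases z1 : z = 1
      · exact Or.inl z1
      by_cases z2 : z = t
      · exact Or.inr (Or.inl z2)
      · exact Or.inr (Or.inr (h z hz z1 z2))
    have h5 := Set.ncard_le_ncard h4 (Set.toFinite _)
    have h6 : ({1, t, t⁻¹} : Set Y).ncard ≤ 3 := by
      refine le_trans (Set.ncard_insert_le _ _) ?_
      have h8 := Set.ncard_insert_le t ({t⁻¹} : Set Y)
      rw [Set.ncard_singleton] at h8
      omega
    have h7 : (X y : Set Y).ncard = 9 := hy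
    omega
  obtain ⟨f, hf, e1⟩ := hκ t ht ht1
  obtain ⟨f', hf', e2⟩ := hκ t' ht' h1
  obtain ⟨f₁, hf₁, e3⟩ := hκ t⁻¹ (inv_mem ht) (fun h => ht1 (inv_eq_one.1 h))
  have hei := inv_mem he
  have hb := H.ys R hL ht hf'
  have hb' := H.ys R hL (inv_mem ht) hf'
  have m1 := H.mul R hL ht hf hei hf' hei (hab _ hf _ hf') e1 e2
  have m2 := H.mul R hL (inv_mem ht) hf₁ hei hf' hei (hab _ hf₁ _ hf') e3 e2
  have g1 := hκ' (t * t') (mul_mem ht ht') (fun h => h4 (mul_eq_one_iff_eq_inv'.1 h)) _ (mul_mem hf hf') _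
    (mul_mem (mul_mem hei hei) hb) m1
  have g2 := hκ' (t⁻¹ * t') (mul_mem (inv_mem ht) ht') (fun h => h2 (inv_mul_eq_one.1 h).symm) _ (mul_mem hf₁ hf') _
    (mul_mem (mul_mem hei hei) hb') m2
  have hinv : ⁅t⁻¹, f'⁆ = ⁅t, f'⁆⁻¹ := by
    have c := H.yl R hL (inv_mem ht) (inv_mem hb)
    have h5 : ⁅t⁻¹, f'⁆ = t⁻¹ * ⁅t, f'⁆⁻¹ * t := by simp only [commutatorElement_def]; group
    rw [h5, c]; group
  have b1 : ⁅t, f'⁆ = e := by
    have h5 : ⁅t, f'⁆ = e * e * (e⁻¹ * e⁻¹ * ⁅t, f'⁆) := by group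
    rw [h5, g1]; group
  have b2 : ⁅t⁻¹, f'⁆ = e := by
    have h5 : ⁅t⁻¹, f'⁆ = e * e * (e⁻¹ * e⁻¹ * ⁅t⁻¹, f'⁆) := by group
    rw [h5, g2]; group
  rw [hinv, b1] at b2
  -- `e⁻¹ = e`
  have h5 : e ^ 3 = 1 := by
    have h6 : (⟨e, he⟩ : X (x + y + y)) ^ 3 = 1 := by rw [← hl]; exact pow_card_eq_one'
    exact congrArg Subtype.val h6
  apply he1
  have h6 : e * e = 1 := by
    have := congrArg (fun z => z * e) b2
    simp only [inv_mul_cancel] at this
    exact this.symm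
  have h7 : e ^ 3 = e * e * e := by rw [pow_succ, pow_two]
  rw [h7, h6, one_mul] at h5
  exact h5

end C2

end Cfsg.Agent.H255.SN6
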