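import Cfsg.Agent.H255.SN6.Ac
import Cfsg.Agent.KFacts.TwESix.Btw

/-!
# The commutator relations of type `F₄` from `LR` (helper255, for S3831, task T4c)
-/

set_option autoImplicit false
set_option linter.unusedSectionVars false

namespace Cfsg.Agent.H255.SN6

open CoxeterSystem Cfsg.Agent.ChevalleyStructure.CoxeterGeom Cfsg.Agent.Tits.Roots Cfsg.Agent.Tits.Core
  Cfsg.Agent.Tits.RootComb Cfsg.Agent.Tits.Exchange Cfsg.Agent.Nodes.Reps Cfsg.Agent.Nodes.BNOf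
  Cfsg.Agent.Nodes.Coroot Cfsg.Agent.Nodes.RGDTwE6 Cfsg.Agent.KFacts.TwESix.Comb Cfsg.Agent.KFacts.TwESix.Btw
  Cfsg.Agent.KFacts.RgdTI
open scoped commutatorElement

theorem bt_all : ∀ x ∈ rts, ∀ y ∈ rts, ∀ z ∈ rts, bt x y z →
    (bf x x = 4 ∧ bf y y = 4 ∧ bf x y = 0) ∨ z = x + y ∨ z = x + x + y ∨ z = x + y + y := by
  decide +kernel

variable {W Y : Type*} [Group W] [Group Y] {cs : CoxeterSystem CoxeterMatrix.F₄ W} {p : ℕ} {T : Subgroup Y}
  {n : Fin 4 → Y} {X : (Fin 4 → ℤ) → Subgroup Y} (R : RGD cs isCartan p T n X)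

include R

/-- all long roots -/
theorem lr_all (hL : LR R (sr 0)) {a : Fin 4 → ℤ} (ha : IsRoot cs isCartan a) (hl : bf a a = 4) : LR R a := by
  have : Finite W := finiteW cs
  obtain ⟨w, rfl⟩ := exists_rep_long cs ha hl
  refine ⟨ha, fun x hx hc u hu v hv => ?_⟩
  obtain ⟨k, hk⟩ := exists_rp cs R.nsys w
  have e1 : cpr cs isCartan x (rep cs isCartan w (sr 0)) = cpr cs isCartan (rep cs isCartan w⁻¹ x) (sr 0) := by
    rw [cpr_rep_left _ _ (isRoot_sr cs isCartan 0), inv_inv]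
  rw [e1] at hc
  have hu' : k⁻¹ * u * k ∈ X (rep cs isCartan w⁻¹ x) := R.conj_mem' hk hx hu
  have hv' : k⁻¹ * v * k ∈ X (sr 0) := by
    have := R.conj_mem' hk ((isRoot_sr cs isCartan 0).act w) hv
    rwa [rep_inv_apply] at this
  have h1 := hL.comm _ (hx.act w⁻¹) hc _ hu' _ hv'
  calc u * v = k * ((k⁻¹ * u * k) * (k⁻¹ * v * k)) * k⁻¹ := by group
    _ = k * ((k⁻¹ * v * k) * (k⁻¹ * u * k)) * k⁻¹ := by rw [h1]
    _ = v * u := by group

/-- a long root group commutes with the root groups at an angle `≤ 90` degrees -/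
theorem comm_long (hL : LR R (sr 0)) {x a : Fin 4 → ℤ} (hx : IsRoot cs isCartan x) (ha : IsRoot cs isCartan a)
    (haa : bf a a = 4) (hxa : 0 ≤ bf x a) {u v : Y} (hu : u ∈ X x) (hv : v ∈ X a) : u * v = v * u :=
  (lr_all R hL ha haa).comm x hx ((ge_iff cs ha haa).2 hxa) u hu v hv

/-- **the commutator relations** -/
theorem cm_of_lr (hL : LR R (sr 0)) : CM cs isCartan X := by
  intro x y hx hy hxy hxy' a ha b hb
  by_cases hl : bf x x = 4 ∧ bf y y = 4 ∧ bf x y = 0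
  · have h1 := comm_long R hL hx hy hl.2.1 (by rw [hl.2.2]) ha hb
    rw [commutatorElement_eq_one_iff_mul_comm.2 h1]
    exact one_mem _
  · refine R.btw_le_Sup (fun z hz => ?_) (R.comm x y hx hy hxy hxy' a ha b hb)
    obtain ⟨hz1, hz2⟩ := btwn_spec cs hx hy hxy hxy' hz
    exact ⟨hz.1, (bt_all x ((mem_rts cs).1 hx) y ((mem_rts cs).1 hy) z hz1 hz2).resolve_left hl⟩

end Cfsg.Agent.H255.SN6
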