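import Cfsg.Agent.H790.SNX.Comp
import Cfsg.Agent.H224.SNX.Tee2
import Cfsg.Agent.TwoFusion.SLTwoFacts
import Cfsg.Agent.LieClassical.FieldTransfer
import Cfsg.Agent.Nodes.CardSup

/-!
# Automorphisms of order three and nodes with root groups of order nine (helper255, for S3831, task T4c)

* `eq1a'` : the precise form of `H790.SNX.eq1a`;
* `sz_node` : if `x = conj z * β` (`z ∈ U`, `β` diagonal) has order three, `PS 2 x`, `RN x`, and `|X α_i| = 9` then
  `z ∈ V_i` and `β` is trivial on `X α_i`.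
-/

set_option autoImplicit false
set_option linter.unusedSectionVars false

namespace Cfsg.Agent.H255.SN6

open CoxeterSystem Cfsg.Agent.ChevalleyStructure.CoxeterGeom Cfsg.Agent.Tits.Roots Cfsg.Agent.Tits.Core
  Cfsg.Agent.Tits.RootComb Cfsg.Agent.Tits.Exchange Cfsg.Agent.Nodes.Reps Cfsg.Agent.Nodes.BNOf
  Cfsg.Agent.Nodes.StabComb Cfsg.Agent.Nodes.Bruhat Cfsg.Agent.Nodes.OppDec Cfsg.Agent.Nodes.LeviDec
  Cfsg.Agent.Nodes.NormalForm Cfsg.Agent.KFacts.RgdOpp Cfsg.Agent.KFacts.RgdAut Cfsg.Agent.KFacts.RgdDiag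
  Cfsg.Agent.KFacts.RgdRigid Cfsg.Agent.CpAut.RgdFix
open Cfsg Cfsg.Agent.H459.Rad Cfsg.Agent.H21.SN Cfsg.Agent.H65.Disp.Rgd Cfsg.Agent.H622.Levi Cfsg.Agent.H790.SNX
open Cfsg.Agent.LieRecognition.BNCox (cA)
open Matrix
open scoped Pointwise

variable {I W : Type*} [Fintype I] [DecidableEq I] [Group W] {Y : Type} [Group Y] {M : CoxeterMatrix I}
  {cs : CoxeterSystem M W} {A : I → I → ℤ} {h : IsCartan M A} {p : ℕ} {T : Subgroup Y} {n : I → Y}
  {X : (I → ℤ) → Subgroup Y}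

section

variable (R : RGD cs h p T n X)

include R

theorem eq1a' [Finite W] [Finite Y] [Fact p.Prime] {β : MulAut Y} (D : Diag T X β 1) {z : Y}
    (hx : (MulAut.conj z * β) ^ 3 = 1)
    (hP : PS 2 (MulAut.conj z * β)) (hR : RN (MulAut.conj z * β)) {J : Set I} (hz : z ∈ PJ cs h T X J) {m : ℕ}
    (hm : 1 ≤ m) (k : Fin m ↪ I) (hk : ∀ i j, M (k i) (k j) = cA m i j) (hkJ : Set.range k ⊆ J)
    (ho : ∀ i ∈ Set.range k, ∀ j ∈ J \ Set.range k, M i j = 2) {F : Type} [Field F] [Fintype F]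
    {φ : SpecialLinearGroup (Fin (m + 1)) F →* Y} (C : Co X k F φ)
    (hS : IsSimpleGroup (Matrix.ProjectiveSpecialLinearGroup (Fin (m + 1)) F))
    (hG3 : G3 (Matrix.ProjectiveSpecialLinearGroup (Fin (m + 1)) F)) {y : Y}
    (hy : y ∈ H53.HC.MJ cs h X (Set.range k)) : y⁻¹ * (MulAut.conj z * β) y ∈
      VJ cs h X J ⊔ (Subgroup.center (SpecialLinearGroup (Fin (m + 1)) F)).map φ := by
  obtain ⟨N, hN⟩ : ∃ N : Subgroup Y, N = VJ cs h X J ⊔ H53.HC.MJ cs h X (Set.range k) := ⟨_, rfl⟩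
  obtain ⟨f, hfs, hfk⟩ : ∃ f : N →* Matrix.ProjectiveSpecialLinearGroup (Fin (m + 1)) F,
      Function.Surjective f ∧ ∀ y : N, f y = 1 →
        (y : Y) ∈ VJ cs h X J ⊔ (Subgroup.center (SpecialLinearGroup (Fin (m + 1)) F)).map φ := by
    rw [hN]
    exact exists_proj R (J := J) hm k hk hkJ C
  have hcT := center_le_T R hm k hk C
  have hNP : PJ cs h T X J ≤ Subgroup.normalizer (N : Set Y) := by
    rw [hN]
    exact PJ_le_normalizer R hkJ ho
  -- `N` is invariant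
  have hβ : Fix β N := by
    have e : N = RGD.Sup X (NotJ cs h J ∪ RootsJ cs h (Set.range k)) := by
      rw [hN]
      apply le_antisymm
      · exact sup_le (RGD.Sup_mono Set.subset_union_left) (RGD.Sup_mono Set.subset_union_right)
      · refine RGD.Sup_le fun x hx => ?_
        rcases hx with hx | hx
        · exact le_trans (RGD.le_Sup hx) (le_sup_left (b := H53.HC.MJ cs h X (Set.range k)))
        · exact le_trans (RGD.le_Sup hx) (le_sup_right (a := VJ cs h X J))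
    rw [e]
    refine fix_Sup fun x hx => fix_X R D ?_
    rcases hx with hx | hx
    · exact hx.1
    · exact hx.1
  have hM : ∀ m ∈ N, (MulAut.conj z * β) m ∈ N := by
    intro m hm
    rw [MulAut.mul_apply, MulAut.conj_apply]
    exact (Subgroup.mem_normalizer_iff.1 (hNP hz) _).1 ((hβ m).2 hm)
  -- the kernel is solvable
  have hVs : Group.IsSolvable ↥(VJ cs h X J) := by
    have h1 : IsPGroup p ↥(VJ cs h X J) := (R.isPGroup_Upos).to_le (VJ_le_U J)
    have := h1.isNilpotent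
    infer_instance
  have hCs : Group.IsSolvable ↥((Subgroup.center (SpecialLinearGroup (Fin (m + 1)) F)).map φ) := by
    refine Group.isSolvable_of_comm ?_
    rintro ⟨_, a, ha, rfl⟩ ⟨_, b, hb, rfl⟩
    apply Subtype.ext
    change φ a * φ b = φ b * φ a
    rw [← map_mul, ← map_mul, Subgroup.mem_center_iff.1 hb a]
  have hks : Group.IsSolvable f.ker := by
    have h1 : Group.IsSolvable ↥(VJ cs h X J ⊔ (Subgroup.center (SpecialLinearGroup (Fin (m + 1)) F)).map φ) := by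
      refine Cfsg.Agent.H459.Gallery.isSolvable_sup (M := PJ cs h T X J) VJ_le_PJ ?_ ?_ hVs hCs
      · exact le_trans hcT (fun t ht => B_le_PJ (RGD.T_le_B ht))
      · intro g hg a ha
        exact (Subgroup.mem_normalizer_iff.1 (PJ_le_normalizer_VJ R J hg) a).1 ha
    let i : f.ker →* ↥(VJ cs h X J ⊔ (Subgroup.center (SpecialLinearGroup (Fin (m + 1)) F)).map φ) :=
      (N.subtype.comp f.ker.subtype).codRestrict _ fun y => hfk y y.2
    refine Group.isSolvable_of_isSolvable_injective (f := i) ?_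
    intro a b hab
    have h2 := congrArg Subtype.val hab
    exact Subtype.ext (Subtype.ext h2)
  have hyN : y ∈ N := by
    rw [hN]
    exact Subgroup.mem_sup_right hy
  have h1 := sec_eq hx hP hR hM (not_isSolvable_psl hm) hG3 f hfs hks ⟨y, hyN⟩
  have h2 : f (⟨y, hyN⟩⁻¹ * ⟨(MulAut.conj z * β) y, hM y hyN⟩) = 1 := by
    rw [map_mul, map_inv, h1, inv_mul_cancel]
  exact hfk _ h2

end

theorem sq_eq_one {F : Type} [Field F] {c : SpecialLinearGroup (Fin 2) F}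
    (hc : c ∈ Subgroup.center (SpecialLinearGroup (Fin 2) F)) : c ^ 2 = 1 := by
  rw [Matrix.SpecialLinearGroup.mem_center_iff] at hc
  obtain ⟨r, hr, e⟩ := hc
  rw [Fintype.card_fin] at hr
  have h1 : (c ^ 2).1 = c.1 ^ 2 := Matrix.SpecialLinearGroup.coe_pow c 2
  refine Subtype.ext (h1.trans ?_)
  rw [← e, ← map_pow, hr, map_one]
  rfl

theorem pow_card' {G : Type*} [Group G] {H : Subgroup G} {m : ℕ} (hm : Nat.card H = m) {y : G} (hy : y ∈ H) :
    y ^ m = 1 := by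
  have h2 : (⟨y, hy⟩ : H) ^ m = 1 := by rw [← hm]; exact pow_card_eq_one'
  have h3 := congrArg Subtype.val h2
  rwa [Subgroup.coe_pow] at h3

theorem eq_one_of_two_nine {G : Type*} [Group G] {c : G} (h2 : c ^ 2 = 1) (h9 : c ^ 9 = 1) : c = 1 := by
  have h3 : c ^ (2 * 4 + 1) = 1 := h9
  rw [pow_succ, pow_mul, h2, one_pow, one_mul] at h3
  exact h3

/-- the core of `sz_node` -/
theorem sz_core (R : RGD cs h 3 T n X) [Finite W] [Finite Y] {β : MulAut Y} (D : Diag T X β 1) {z : Y}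
    (hz : z ∈ RGD.Sup X (RGD.Pos cs h)) {i : I} (hcard : Nat.card (X (sr i)) = 9) {Z : Subgroup Y}
    (hZM : Z ≤ H53.HC.MJ cs h X {i}) (hZ2 : ∀ c ∈ Z, c ^ 2 = 1)
    (hZc : ∀ c ∈ Z, ∀ y ∈ H53.HC.MJ cs h X {i}, c * y = y * c)
    (key : ∀ y ∈ H53.HC.MJ cs h X {i}, y⁻¹ * (MulAut.conj z * β) y ∈ VJ cs h X {i} ⊔ Z) :
    z ∈ VJ cs h X {i} ∧ ∀ y ∈ X (sr i), β y = y := by
  obtain ⟨u, hu, v, hv, rfl⟩ := (mem_U_iff R (J := {i})).1 hz
  rw [UJ_singleton] at hu
  have hr1 : sr i ∈ RootsJ cs h {i} := PosJ_subset {i} (sr_mem_PosJ (Set.mem_singleton i))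
  have hr2 : -sr i ∈ RootsJ cs h {i} := ⟨hr1.1.neg, fun a ha => by rw [Pi.neg_apply, hr1.2 a ha, neg_zero]⟩
  have hXM : X (sr i) ≤ H53.HC.MJ cs h X {i} := RGD.le_Sup hr1
  have hXM' : X (-sr i) ≤ H53.HC.MJ cs h X {i} := RGD.le_Sup hr2
  have hML : H53.HC.MJ cs h X {i} ≤ LJ cs h T X {i} := H53.HC.MJ_le_LJ _
  have hnorm : LJ cs h T X {i} ≤ Subgroup.normalizer (VJ cs h X {i} : Set Y) := LJ_le_normalizer_VJ R _
  have huL : u ∈ LJ cs h T X {i} := hML (hXM hu)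
  -- the projection
  have key2 : ∀ y ∈ H53.HC.MJ cs h X {i}, β y ∈ H53.HC.MJ cs h X {i} → y⁻¹ * (u * β y * u⁻¹) ∈ Z := by
    intro y hy hβy
    have h1 := key y hy
    have h2 : (u * v) * β y * (u * v)⁻¹ = (u * β y * u⁻¹) * (u * ((β y)⁻¹ * v * (β y)⁻¹⁻¹ * v⁻¹) * u⁻¹) := by group
    have h3 : u * ((β y)⁻¹ * v * (β y)⁻¹⁻¹ * v⁻¹) * u⁻¹ ∈ VJ cs h X {i} := by
      refine (Subgroup.mem_normalizer_iff.1 (hnorm huL) _).1 (mul_mem ?_ (inv_mem hv))
      exact (Subgroup.mem_normalizer_iff.1 (hnorm (inv_mem (hML hβy))) v).1 hv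
    rw [MulAut.mul_apply, MulAut.conj_apply, h2, ← mul_assoc] at h1
    have h4 : y⁻¹ * (u * β y * u⁻¹) ∈ VJ cs h X {i} ⊔ Z := by
      have := mul_mem h1 (inv_mem (Subgroup.mem_sup_left (T := Z) h3))
      rwa [mul_inv_cancel_right] at this
    have h5 : y⁻¹ * (u * β y * u⁻¹) ∈ ((VJ cs h X {i} ⊔ Z : Subgroup Y) : Set Y) := h4
    rw [Subgroup.coe_mul_of_right_le_normalizer_left _ _ (le_trans (le_trans hZM hML) hnorm), Set.mem_mul] at h5
    obtain ⟨v', hv', c, hc, e⟩ := h5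
    have h6 : v' ∈ LJ cs h T X {i} := by
      have : v' = y⁻¹ * (u * β y * u⁻¹) * c⁻¹ := by rw [← e, mul_inv_cancel_right]
      rw [this]
      exact mul_mem (mul_mem (inv_mem (hML hy)) (mul_mem (mul_mem huL (hML hβy)) (inv_mem huL)))
        (inv_mem (hML (hZM hc)))
    have h7 := eq_one_of_mem_LJ_of_mem_VJ R h6 hv'
    rw [h7, one_mul] at e
    rw [← e]
    exact hc
  have hpos : ∀ y, β y ∈ X (sr i) ↔ y ∈ X (sr i) := fun y => D.pos i y
  have hneg : ∀ y, β y ∈ X (-sr i) ↔ y ∈ X (-sr i) := fun y => D.neg i y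
  have hc9 : ∀ c : Y, c ^ 2 = 1 → c ^ 9 = 1 → c = 1 := fun c h2 h9 => eq_one_of_two_nine h2 h9
  have hp9 : ∀ y ∈ X (-sr i), y ^ 9 = 1 := by
    intro y hy
    have h1 : Nat.card (X (-sr i)) = 9 := by
      rw [← rep_simple_sr cs h i, Cfsg.Agent.Nodes.CardSup.card_X_rep R _ (isRoot_sr cs h i), hcard]
    exact pow_card' h1 hy
  have hp9' : ∀ y ∈ X (sr i), y ^ 9 = 1 := by
    intro y hy
    exact pow_card' hcard hy
  have hneg' : ∀ y ∈ X (-sr i), u * β y * u⁻¹ = y := by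
    intro y hy
    have hβy : β y ∈ X (-sr i) := (hneg y).2 hy
    obtain ⟨c, hc⟩ : ∃ c, c = y⁻¹ * (u * β y * u⁻¹) := ⟨_, rfl⟩
    have hcZ : c ∈ Z := by rw [hc]; exact key2 y (hXM' hy) (hXM' hβy)
    have h1 : y * c = u * β y * u⁻¹ := by rw [hc]; group
    have h2 : (y * c) ^ 9 = 1 := by
      rw [h1, conj_pow, hp9 _ hβy, mul_one, mul_inv_cancel]
    have h3 : Commute y c := (hZc c hcZ y (hXM' hy)).symm
    rw [h3.mul_pow, hp9 y hy, one_mul] at h2
    rw [← h1, hc9 c (hZ2 c hcZ) h2, mul_one]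
  have hu1 : u = 1 := by
    refine eq_one_of_norm R hu fun y hy => ?_
    have h1 : β.symm y ∈ X (-sr i) := by
      rw [← hneg, MulEquiv.apply_symm_apply]
      exact hy
    have h2 := hneg' _ h1
    rw [MulEquiv.apply_symm_apply] at h2
    rw [h2]
    exact h1
  subst hu1
  refine ⟨by rwa [one_mul], fun y hy => ?_⟩
  have h1 := key2 y (hXM hy) (hXM ((hpos y).2 hy))
  rw [one_mul, inv_one, mul_one] at h1
  have h2 : y⁻¹ * β y ∈ X (sr i) := mul_mem (inv_mem hy) ((hpos y).2 hy)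
  exact (inv_mul_eq_one.1 (hc9 _ (hZ2 _ h1) (hp9' _ h2))).symm

/-- **nodes with `|X α_i| = 9`** -/
theorem sz_node (R : RGD cs h 3 T n X) [Finite W] [Finite Y] {β : MulAut Y} (D : Diag T X β 1) {z : Y}
    (hz : z ∈ RGD.Sup X (RGD.Pos cs h)) (hx : (MulAut.conj z * β) ^ 3 = 1) (hP : PS 2 (MulAut.conj z * β))
    (hR : RN (MulAut.conj z * β)) {i j : I} (hij : M i j = 3) (hcard : Nat.card (X (sr i)) = 9)
    (hG3 : G3 (Matrix.ProjectiveSpecialLinearGroup (Fin 2) (GaloisField 3 2))) :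
    z ∈ VJ cs h X {i} ∧ ∀ y ∈ X (sr i), β y = y := by
  have : Fact (Nat.Prime 3) := ⟨Nat.prime_three⟩
  obtain ⟨F, _, _, φ, C⟩ := exists_co_one R i j hij
  let k : Fin 1 ↪ I := ⟨fun _ => i, fun a b _ => Subsingleton.elim a b⟩
  have C' : Co X k F φ := C
  have hcF : Fintype.card F = 9 := by
    rw [← Nat.card_eq_fintype_card, ← C'.card 0]
    exact hcard
  have hS : IsSimpleGroup (Matrix.ProjectiveSpecialLinearGroup (Fin 2) F) :=
    TwoFusion.SLTwoFacts.isSimpleGroup_psl (by rw [hcF]; norm_num)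
  have hG : G3 (Matrix.ProjectiveSpecialLinearGroup (Fin 2) F) := by
    have : Fintype (GaloisField 3 2) := Fintype.ofFinite _
    refine hG3.congr (Cfsg.Agent.LieClassical.FieldTransfer.pslCongr (FiniteField.ringEquivOfCardEq ?_))
    rw [hcF, ← Nat.card_eq_fintype_card, GaloisField.card 3 2 (by norm_num)]
    norm_num
  have hr : Set.range k = {i} := by
    ext a
    constructor
    · rintro ⟨b, rfl⟩; rfl
    · rintro rfl; exact ⟨0, rfl⟩
  have hk : ∀ a b, M (k a) (k b) = cA 1 a b := by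
    intro a b
    rw [Subsingleton.elim a 0, Subsingleton.elim b 0]
    change M i i = _
    rw [M.diagonal]; rfl
  have hJ : z ∈ PJ cs h T X {i} := B_le_PJ (RGD.U_le_B hz)
  obtain ⟨Z, hZ⟩ : ∃ Z, Z = (Subgroup.center (SpecialLinearGroup (Fin 2) F)).map φ := ⟨_, rfl⟩
  have hrange : φ.range = H53.HC.MJ cs h X {i} := by
    rw [← hr]
    exact C'.range hk (by norm_num)
  have hZM : Z ≤ H53.HC.MJ cs h X {i} := by
    rw [← hrange, hZ]
    rintro _ ⟨c, -, rfl⟩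
    exact ⟨c, rfl⟩
  have hZ2 : ∀ c ∈ Z, c ^ 2 = 1 := by
    rw [hZ]
    rintro _ ⟨c, hc, rfl⟩
    rw [← map_pow, sq_eq_one hc, map_one]
  have hZc : ∀ c ∈ Z, ∀ y ∈ H53.HC.MJ cs h X {i}, c * y = y * c := by
    rw [hZ, ← hrange]
    rintro _ ⟨c, hc, rfl⟩ _ ⟨y, rfl⟩
    rw [← map_mul, ← map_mul, Subgroup.mem_center_iff.1 hc y]
  have key : ∀ y ∈ H53.HC.MJ cs h X {i}, y⁻¹ * (MulAut.conj z * β) y ∈ VJ cs h X {i} ⊔ Z := by
    intro y hy
    rw [hZ]
    refine eq1a' R D hx hP hR hJ le_rfl k hk (by rw [hr]) ?_ C' hS hG (by rw [hr]; exact hy)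
    intro a ha b hb
    exfalso
    rw [hr] at hb
    exact hb.2 hb.1
  exact sz_core R D hz hcard hZM hZ2 hZc key

end Cfsg.Agent.H255.SN6
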